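import Mathlib
import Cfsg.Agent.Lib.AutPO.CentrEven

/-!
Centralizers of field automorphisms of the orthogonal groups of minus type.
-/

set_option autoImplicit false
set_option linter.unusedSectionVars false
set_option linter.unusedVariables false

open scoped Matrix

namespace Cfsg.Agent.Lib.AutPO

open Cfsg.Agent.Lib.Classical Cfsg.Agent.Lib.Classical.Witt Cfsg.Agent.Lib.Classical.Abs Cfsg.Agent.Lib.Classical.Orth
open Cfsg.Agent.Lib.Known3.SimAut Cfsg.Agent.Lib.Known3.OmegaTrans Cfsg.Agent.Lib.Known3.OmegaCalc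
open Cfsg.Agent.Lib.Known3.Spinor Cfsg.Agent.Lib.Known3.OmegaSum Cfsg.Agent.Lib.Known3.QuadIso Cfsg.Agent.Lib.Known3.QuadStd
open scoped commutatorElement
open Module Ln

local notation "P" => QuadraticMap.polarBilin
local notation "GLn" => Matrix.GeneralLinearGroup

section final

universe u v

variable {F : Type u} [Field F] [Fintype F] {m : ℕ}

lemma nonsq_of_card_odd {K : Type*} [Field K] [Fintype K] (h2 : (2 : K) ≠ 0) : ∃ ν : K, ν ≠ 0 ∧ ¬ IsSquare ν := exists_nonsq h2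

/-- The main theorem for minus type. -/
theorem field_minus_main {p f : ℕ} [hp : Fact p.Prime] (hF : Fintype.card F = p ^ f) (hf : 1 ≤ f) (hm : 3 ≤ m) {a b : F}
    (hab : ∀ z₁ z₂ : F, z₁ ^ 2 + a * z₁ * z₂ + b * z₂ ^ 2 = 0 → z₁ = 0 ∧ z₂ = 0)
    {q : ((Fin m ⊕ Fin m) ⊕ Fin 2 → F) → F} (hq : ⇑(Qminus m F a b) = q) (x : MulAut (Cfsg.POmega F q)) (hsx : x ∉ Cfsg.pgoAut F q)
    {r : ℕ} (hr : r.Prime) (hxr : orderOf x = r) (F₀ : Type v) [Field F₀] [Fintype F₀] (hF₀ : Fintype.card F₀ = p ^ (f / r)) :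
    Odd r ∧ r ∣ f ∧ (∃ a₀ b₀ : F₀, (∀ z₁ z₂ : F₀, z₁ ^ 2 + a₀ * z₁ * z₂ + b₀ * z₂ ^ 2 = 0 → z₁ = 0 ∧ z₂ = 0) ∧
      ∀ q₀ : (((Fin m ⊕ Fin m) ⊕ Fin 2 → F₀) → F₀), ⇑(Qminus m F₀ a₀ b₀) = q₀ →
        Nonempty (↥(GR q (Cfsg.PreservesSingularClassesMinus m a b) ⊓ Subgroup.centralizer {x}) ≃* ↥(GR q₀ (Cfsg.PreservesSingularClassesMinus m a₀ b₀)))) ∧
      Cfsg.splitClassCount (GR q (Cfsg.PreservesSingularClassesMinus m a b)) (Cfsg.Inn (Cfsg.POmega F q)) x = 1 := by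
  classical
  subst hq
  haveI hND : ND (Qminus m F a b) := nd_minus hm hab
  have H := H_minus hm hab
  have hxpow : x ^ r = 1 := by rw [← hxr]; exact pow_orderOf_eq_one _
  have hsx' : sig H x ≠ 1 := fun h => hsx ((sig_eq_one_iff H x).1 h)
  obtain ⟨σ, hσdef⟩ : ∃ σ, σ = sig H x := ⟨_, rfl⟩
  rw [← hσdef] at hsx'
  haveI : Fact r.Prime := ⟨hr⟩
  have hord : orderOf σ = r := orderOf_eq_prime (by rw [hσdef, ← map_pow, hxpow, map_one]) hsx'
  obtain ⟨hdvd, e, he, hfix⟩ := Known3.FieldFix.exists_fix_embed hF σ hr hord F₀ hF₀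
  letI iA : Algebra F₀ F := e.toAlgebra
  have hfix' : ∀ t, σ t = t ↔ t ∈ (algebraMap F₀ F).range := hfix
  obtain ⟨S, hS⟩ := act_surj H x
  have hSσ : S.σ = σ := by rw [hσdef, ← hS, sig_act]
  obtain ⟨D⟩ := exists_LD S hSσ hord hr.ne_zero (by rw [hS, hxpow])
  obtain ⟨ζ, θ₀, hζ, hθ₀⟩ := minus_types hab D
  obtain ⟨b₀, hb₀⟩ := (hfix' (ζ : F)).1 ζ.2
  have hb₀' : ∀ t : F₀, t ^ 2 + t + b₀ ≠ 0 := by
    intro t ht
    apply hζ ⟨algebraMap F₀ F t, (hfix' _).2 ⟨t, rfl⟩⟩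
    apply Subtype.ext
    have h1 := congrArg (algebraMap F₀ F) ht
    simp only [map_add, map_pow, map_zero, hb₀] at h1
    exact h1
  have hab₀ := anisotropic_of b₀ hb₀'
  have h10 : Qminus m F (algebraMap F₀ F 1) (algebraMap F₀ F b₀) = Qminus m F ((1 : fixF σ) : F) ((ζ : fixF σ) : F) := by
    rw [hb₀, map_one]
    rfl
  obtain ⟨M⟩ := D.exists_mdl θ₀ (Qminus m F (algebraMap F₀ F 1) (algebraMap F₀ F b₀)) 1 (by
    intro v
    rw [h10, minus_ext0]
    have := hθ₀ v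
    simp only [Units.val_one, one_mul]
    exact congrArg _ this)
  have hext : ∀ v, Qminus m F (algebraMap F₀ F 1) (algebraMap F₀ F b₀) (extK v) = algebraMap F₀ F (Qminus m F₀ 1 b₀ v) := Qminus_extK
  haveI hND₀ : ND (Qminus m F₀ 1 b₀) := nd_minus hm hab₀
  have hrodd : Odd r := by
    rcases hr.eq_two_or_odd' with rfl | h
    · exfalso
      have hdeg : finrank F₀ F = 2 := finrank_of_cards hp.out hF hF₀ hr hdvd hf
      obtain ⟨ω, hω⟩ := exists_root_quad hdeg (1 : F₀) b₀ hab₀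
      have hU := lagr_ext (m := m) hω
      have h1 := Known3.Witt.finrank_le_of_singular_minus m a b hab ((LinearMap.range (lagrMap (m := m) ω)).map (M.E : _ →ₗ[F] _)) (by
        rintro _ ⟨u, hu, rfl⟩
        change Cfsg.quadFormMinus m F a b (M.E u) = 0
        rw [← coe_Qminus, M.hq, hU.ts u hu, mul_zero])
      rw [LinearEquiv.finrank_map_eq, hU.dim] at h1
      omega
    · exact h
  have hfrV : finrank F ((Fin m ⊕ Fin m) ⊕ Fin 2 → F) = m + m + 2 := by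
    simp [Module.finrank_fintype_fun_eq_card]
  have hfrV₀ : finrank F₀ ((Fin m ⊕ Fin m) ⊕ Fin 2 → F₀) = m + m + 2 := by
    simp [Module.finrank_fintype_fun_eq_card]
  have hrk : Fintype.card F ≠ 2 ∨ finrank F ((Fin m ⊕ Fin m) ⊕ Fin 2 → F) ≠ 4 := Or.inr (by omega)
  have hrk₀ : Fintype.card F₀ ≠ 2 ∨ finrank F₀ ((Fin m ⊕ Fin m) ⊕ Fin 2 → F₀) ≠ 4 := Or.inr (by omega)
  have hQ := Qminus_nondeg hab m
  have hQ₀ := Qminus_nondeg hab₀ m
  have hP := parPred_minus hm hab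
  have hP₀ := parPred_minus hm hab₀
  have hlift : ∀ g₀ : Sim ⇑(Qminus m F₀ 1 b₀), Cfsg.PreservesSingularClassesMinus m a b (M.lift hext g₀).1.1 ↔
      Cfsg.PreservesSingularClassesMinus m 1 b₀ g₀.1.1 := by
    intro g₀
    by_cases h2 : (2 : F) = 0
    · have h2₀ : (2 : F₀) = 0 := by
        apply (algebraMap F₀ F).injective
        rw [map_ofNat, map_zero, h2]
      exact M.lift_char2 hext hP hP₀ h2₀ hQ₀ hrk₀ exists_ne_zero g₀
    · have h2₀ : (2 : F₀) ≠ 0 := by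
        intro h
        apply h2
        have := congrArg (algebraMap F₀ F) h
        rwa [map_ofNat, map_zero] at this
      rw [psc_minus a b hab h2, psc_minus 1 b₀ hab₀ h2₀]
      exact M.lift_eps hext g₀
  have hcentr := M.centr_even hext hfix' hord hr.ne_zero hP hP₀ hlift
  subst hS
  refine ⟨hrodd, hdvd, ⟨1, b₀, hab₀, ?_⟩, ?_⟩
  · intro q₀ hq₀
    subst hq₀
    exact hcentr
  · by_cases h2 : (2 : F) = 0
    · exact count_char2 hP hQ hrk h2 _
    · have h2₀ : (2 : F₀) ≠ 0 := by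
        intro h
        apply h2
        have := congrArg (algebraMap F₀ F) h
        rwa [map_ofNat, map_zero] at this
      obtain ⟨ν₀, hν₀0, hν₀⟩ := exists_nonsq h2₀
      obtain ⟨s, t, hst⟩ := exists_rep h2₀ 1 b₀ hab₀ ν₀
      refine M.count_odd hext hfix' hord hrodd h2 hQ hQ₀ hrk hP hP₀ hlift (by omega) (dMinus 1 b₀ ν₀ s t hν₀0 hst) ?_ ?_
      · rw [psc_minus 1 b₀ hab₀ h2₀]
        exact eps_dMinus 1 b₀ hab₀ h2₀ ν₀ s t hν₀0 hst
      · have := mu_dMinus 1 b₀ hab₀ h2₀ ν₀ s t hν₀0 hst (m := m)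
        intro h3
        apply hν₀
        rw [← this]
        exact h3

end final

end Cfsg.Agent.Lib.AutPO
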